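-- helper74: FCZ (S3359 + S4291): two distinct commuting involutions exclude cyclic Sylow 2-subgroups.
import Mathlib
import Cfsg.Agent.Lib.Helper81.FCZ.Defs

set_option autoImplicit false

namespace Cfsg.Agent.Lib.Helper74.FCZ

open Cfsg.Agent.Lib.Helper81.FCZ

/-- a finite cyclic group has at most one involution. -/
theorem cyclic_inv_unique {C : Type*} [Group C] [Finite C] [IsCyclic C] (u v : C) (hu : u ≠ 1)
    (hv : v ≠ 1) (hu2 : u ^ 2 = 1) (hv2 : v ^ 2 = 1) : u = v := by
  classical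
  haveI := Fintype.ofFinite C
  by_contra huv
  have h := IsCyclic.card_pow_eq_one_le (α := C) (n := 2) (by norm_num)
  have hsub : ({1, u, v} : Finset C) ⊆ Finset.univ.filter (fun a => a ^ 2 = 1) := by
    intro a ha
    simp only [Finset.mem_insert, Finset.mem_singleton] at ha
    rw [Finset.mem_filter]
    refine ⟨Finset.mem_univ _, ?_⟩
    rcases ha with h | h | h
    · rw [h, one_pow]
    · rw [h, hu2]
    · rw [h, hv2]
  have hc : ({1, u, v} : Finset C).card = 3 := by
    rw [Finset.card_insert_of_notMem, Finset.card_insert_of_notMem, Finset.card_singleton]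
    · simpa using huv
    · simp [Ne.symm hu, Ne.symm hv]
  have h3 := Finset.card_le_card hsub
  omega

/-- two distinct commuting involutions: the Sylow 2-subgroups are not cyclic. -/
theorem not_c2_of_two_inv {K : Type*} [Group K] [Finite K] (u v : K) (hu : u ≠ 1) (hv : v ≠ 1)
    (huv : u ≠ v) (hu2 : u * u = 1) (hv2 : v * v = 1) (hc : u * v = v * u) : ¬ C2 K := by
  intro hC
  haveI : Fact (Nat.Prime 2) := ⟨Nat.prime_two⟩
  have hpu : IsPGroup 2 (Subgroup.zpowers u) := IsPGroup.of_card (n := 1) (by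
    rw [Nat.card_zpowers, orderOf_eq_prime (by rw [pow_two]; exact hu2) hu, pow_one])
  have hpv : IsPGroup 2 (Subgroup.zpowers v) := IsPGroup.of_card (n := 1) (by
    rw [Nat.card_zpowers, orderOf_eq_prime (by rw [pow_two]; exact hv2) hv, pow_one])
  have hle : Subgroup.zpowers u ≤ Subgroup.normalizer (Subgroup.zpowers v : Set K) := by
    refine le_trans ?_ (Subgroup.centralizer_le_normalizer _)
    rw [Subgroup.zpowers_le, Subgroup.mem_centralizer_iff]
    rintro h ⟨k, rfl⟩
    exact (Commute.zpow_left (show Commute v u from hc.symm) k).eq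
  have hp := IsPGroup.to_sup_of_normal_right' hpu hpv hle
  obtain ⟨Q, hQ⟩ := hp.exists_le_sylow
  haveI := hC Q
  have hu' : u ∈ (Q : Subgroup K) := hQ (Subgroup.mem_sup_left (Subgroup.mem_zpowers u))
  have hv' : v ∈ (Q : Subgroup K) := hQ (Subgroup.mem_sup_right (Subgroup.mem_zpowers v))
  have h := cyclic_inv_unique (C := ↥(Q : Subgroup K)) ⟨u, hu'⟩ ⟨v, hv'⟩
    (fun h => hu (congrArg Subtype.val h)) (fun h => hv (congrArg Subtype.val h))
    (Subtype.ext (by simp [pow_two, hu2])) (Subtype.ext (by simp [pow_two, hv2]))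
  exact huv (congrArg Subtype.val h)

/-- the same for a subgroup. -/
theorem not_c2_sub {X : Type*} [Group X] [Finite X] (K : Subgroup X) (u v : X) (hu : u ∈ K)
    (hv : v ∈ K) (hu1 : u ≠ 1) (hv1 : v ≠ 1) (huv : u ≠ v) (hu2 : u * u = 1) (hv2 : v * v = 1)
    (hc : u * v = v * u) : ¬ C2 ↥K :=
  not_c2_of_two_inv (K := ↥K) ⟨u, hu⟩ ⟨v, hv⟩ (fun h => hu1 (congrArg Subtype.val h))
    (fun h => hv1 (congrArg Subtype.val h)) (fun h => huv (congrArg Subtype.val h))
    (Subtype.ext hu2) (Subtype.ext hv2) (Subtype.ext hc)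

/-- `(0 1)(2 3)`. -/
def uP : Equiv.Perm (Fin 5) := Equiv.swap 0 1 * Equiv.swap 2 3

/-- `(0 2)(1 3)`. -/
def vP : Equiv.Perm (Fin 5) := Equiv.swap 0 2 * Equiv.swap 1 3

/-- `(0 1)(2 4)`. -/
def wP : Equiv.Perm (Fin 5) := Equiv.swap 0 1 * Equiv.swap 2 4

theorem uP_mem : uP ∈ alternatingGroup (Fin 5) := by
  rw [Equiv.Perm.mem_alternatingGroup, uP, Equiv.Perm.sign_mul, Equiv.Perm.sign_swap (by decide),
    Equiv.Perm.sign_swap (by decide)]
  rfl

theorem vP_mem : vP ∈ alternatingGroup (Fin 5) := by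
  rw [Equiv.Perm.mem_alternatingGroup, vP, Equiv.Perm.sign_mul, Equiv.Perm.sign_swap (by decide),
    Equiv.Perm.sign_swap (by decide)]
  rfl

theorem wP_mem : wP ∈ alternatingGroup (Fin 5) := by
  rw [Equiv.Perm.mem_alternatingGroup, wP, Equiv.Perm.sign_mul, Equiv.Perm.sign_swap (by decide),
    Equiv.Perm.sign_swap (by decide)]
  rfl

theorem uP_ne_one : uP ≠ 1 := by decide
theorem vP_ne_one : vP ≠ 1 := by decide
theorem uP_ne_vP : uP ≠ vP := by decide
theorem uP_sq : uP * uP = 1 := by decide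
theorem vP_sq : vP * vP = 1 := by decide
theorem uP_vP_comm : uP * vP = vP * uP := by decide
theorem uP_wP_ncomm : uP * wP ≠ wP * uP := by decide

end Cfsg.Agent.Lib.Helper74.FCZ
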