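-- helper74: FCZ package [NZ-A5].
import Mathlib
import Cfsg.Agent.Lib.Helper81.FCZ.Defs
import Cfsg.Agent.Lib.Helper74.FCZ.TwoInv

set_option autoImplicit false

namespace Cfsg.Agent.Lib.Helper74.FCZ

open Cfsg.Agent.Lib.Helper81.FCZ

theorem pkgNZA5 : PkgNZA5 := by
  have hu1 : (⟨uP, uP_mem⟩ : alternatingGroup (Fin 5)) ≠ 1 :=
    fun h => uP_ne_one (congrArg Subtype.val h)
  have hv1 : (⟨vP, vP_mem⟩ : alternatingGroup (Fin 5)) ≠ 1 :=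
    fun h => vP_ne_one (congrArg Subtype.val h)
  have huv : (⟨uP, uP_mem⟩ : alternatingGroup (Fin 5)) ≠ ⟨vP, vP_mem⟩ :=
    fun h => uP_ne_vP (congrArg Subtype.val h)
  have hu2 : (⟨uP, uP_mem⟩ : alternatingGroup (Fin 5)) * ⟨uP, uP_mem⟩ = 1 := Subtype.ext uP_sq
  have hv2 : (⟨vP, vP_mem⟩ : alternatingGroup (Fin 5)) * ⟨vP, vP_mem⟩ = 1 := Subtype.ext vP_sq
  have hc : (⟨uP, uP_mem⟩ : alternatingGroup (Fin 5)) * ⟨vP, vP_mem⟩ =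
      ⟨vP, vP_mem⟩ * ⟨uP, uP_mem⟩ := Subtype.ext uP_vP_comm
  refine ⟨?_, ?_, ?_⟩
  · intro K hK hC
    rcases hK.eq_bot_or_eq_top with h | h
    · exact h
    · exfalso
      exact not_c2_sub K ⟨uP, uP_mem⟩ ⟨vP, vP_mem⟩ (by rw [h]; exact Subgroup.mem_top _)
        (by rw [h]; exact Subgroup.mem_top _) hu1 hv1 huv hu2 hv2 hc hC
  · exact ⟨⟨uP, uP_mem⟩, ⟨wP, wP_mem⟩, fun h => uP_wP_ncomm (congrArg Subtype.val h)⟩
  · exact not_c2_of_two_inv _ _ hu1 hv1 huv hu2 hv2 hc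

end Cfsg.Agent.Lib.Helper74.FCZ
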