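-- helper74: FCZ package [NZ-S5].
import Mathlib
import Cfsg.Agent.Lib.Helper81.FCZ.Defs
import Cfsg.Agent.Lib.Helper74.FCZ.TwoInv

set_option autoImplicit false

namespace Cfsg.Agent.Lib.Helper74.FCZ

open Cfsg.Agent.Lib.Helper81.FCZ

/-- a non-identity permutation of `Fin 5` is not central. -/
theorem perm5_noncentral (g : Equiv.Perm (Fin 5)) (hg : g ≠ 1) :
    ∃ x : Equiv.Perm (Fin 5), g * x ≠ x * g := by
  obtain ⟨i, hi⟩ : ∃ i, g i ≠ i := by
    by_contra h
    push Not at h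
    exact hg (Equiv.ext h)
  have key : ∀ a b : Fin 5, ∃ k, k ≠ a ∧ k ≠ b := by decide
  obtain ⟨k, hki, hkj⟩ := key i (g i)
  refine ⟨Equiv.swap (g i) k, fun h => ?_⟩
  have h' := congrArg (fun f : Equiv.Perm (Fin 5) => f i) h
  simp only [Equiv.Perm.mul_apply] at h'
  rw [Equiv.swap_apply_of_ne_of_ne (Ne.symm hi) (Ne.symm hki), Equiv.swap_apply_left] at h'
  exact hkj h'.symm

theorem pkgNZS5 : PkgNZS5 := by
  refine ⟨?_, ?_, ?_⟩
  · intro K hK hC
    by_contra hne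
    obtain ⟨⟨g, hgK⟩, hg1'⟩ := (Subgroup.ne_bot_iff_exists_ne_one).mp hne
    have hg1 : g ≠ 1 := fun h => hg1' (Subtype.ext h)
    haveI := hK
    have hN : (K.subgroupOf (alternatingGroup (Fin 5))).Normal := inferInstance
    rcases hN.eq_bot_or_eq_top with h | h
    · rw [Subgroup.subgroupOf_eq_bot] at h
      obtain ⟨x, hx⟩ := perm5_noncentral g hg1
      have hcK : g * (x * g⁻¹ * x⁻¹) ∈ K :=
        K.mul_mem hgK (hK.conj_mem g⁻¹ (K.inv_mem hgK) x)
      have hcA : g * (x * g⁻¹ * x⁻¹) ∈ alternatingGroup (Fin 5) := by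
        rw [Equiv.Perm.mem_alternatingGroup]
        simp only [map_mul, map_inv]
        rw [mul_right_comm (Equiv.Perm.sign x), mul_inv_cancel, one_mul, mul_inv_cancel]
      have h1 := Subgroup.disjoint_def.mp h hcK hcA
      apply hx
      calc g * x = (g * (x * g⁻¹ * x⁻¹)) * (x * g) := by group
        _ = x * g := by rw [h1, one_mul]
    · rw [Subgroup.subgroupOf_eq_top] at h
      exact not_c2_sub K uP vP (h uP_mem) (h vP_mem) uP_ne_one vP_ne_one uP_ne_vP uP_sq vP_sq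
        uP_vP_comm hC
  · exact ⟨uP, wP, uP_wP_ncomm⟩
  · exact not_c2_of_two_inv uP vP uP_ne_one vP_ne_one uP_ne_vP uP_sq vP_sq uP_vP_comm

end Cfsg.Agent.Lib.Helper74.FCZ
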